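import Mathlib
import Cfsg.Agent.Lib.Helper70.HH.S3786Defs2

/-!
# S3786, part 2, packages (P1) `LemCenSub` and (P4) `LemPieceIndep` (helper80)
-/

set_option autoImplicit false

namespace Cfsg.Agent.Lib.Helper80.HH86

open Cfsg.Agent.Lib.Helper70.HH86 Cfsg.Agent.Lib.Helper70.HH89

universe u v w

section

variable {F : Type w} [Field F] {H : Type u} [Group H] {V : Type v} [AddCommGroup V]
  [Module F V]

theorem rho_mul (ρ : Representation F H V) (g h : H) (x : V) : ρ (g * h) x = ρ g (ρ h x) := by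
  rw [map_mul]
  rfl

theorem rho_inv_cancel (ρ : Representation F H V) (g : H) (x : V) : ρ g (ρ g⁻¹ x) = x := by
  rw [← rho_mul, mul_inv_cancel, map_one]
  rfl

/-- Package (P1). -/
theorem lemCenSub : LemCenSub.{u, v, w} := by
  intro F _ H _ V _ _ ρ Q U hU
  have hmem : ∀ a ∈ Q, ∀ x ∈ U, ρ a x ∈ U := fun a ha x hx => hU a ha ⟨x, hx, rfl⟩
  refine ⟨{ carrier := {a | CenOn ρ Q U a}
            one_mem' := ?one
            mul_mem' := ?mul
            inv_mem' := ?inv }, fun a => Iff.rfl⟩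
  case one => exact ⟨Q.one_mem, fun b _ x _ => by rw [one_mul, mul_one]⟩
  case mul =>
    rintro a a' ⟨ha, hac⟩ ⟨ha', hac'⟩
    refine ⟨Q.mul_mem ha ha', fun b hb x hx => ?_⟩
    calc ρ (a * a' * b) x = ρ a (ρ (a' * b) x) := by rw [mul_assoc, rho_mul]
      _ = ρ a (ρ (b * a') x) := by rw [hac' b hb x hx]
      _ = ρ (a * b) (ρ a' x) := by rw [← rho_mul, ← rho_mul, mul_assoc]
      _ = ρ (b * a) (ρ a' x) := hac b hb _ (hmem a' ha' x hx)
      _ = ρ (b * (a * a')) x := by rw [← rho_mul, mul_assoc]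
  case inv =>
    rintro a ⟨ha, hac⟩
    refine ⟨Q.inv_mem ha, fun b hb x hx => ?_⟩
    have h1 := hac b hb (ρ a⁻¹ x) (hmem a⁻¹ (Q.inv_mem ha) x hx)
    have h2 := congrArg (ρ a⁻¹) h1
    rw [← rho_mul, ← rho_mul, ← rho_mul, ← rho_mul] at h2
    have e1 : a⁻¹ * (a * b) * a⁻¹ = b * a⁻¹ := by group
    have e2 : a⁻¹ * (b * a) * a⁻¹ = a⁻¹ * b := by group
    rw [e1, e2] at h2
    exact h2.symm

/-- If no element of `Q` separates the pieces `U₁`, `U₂` by scalars, then `U₁ ≤ U₂`. -/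
theorem piece_le (ρ : Representation F H V) (Q : Subgroup H) (W U₁ U₂ : Submodule F V)
    (hcen : ∀ a ∈ Q, ∀ b ∈ Q, ∀ d ∈ Q, (a * b * a⁻¹ * b⁻¹) * d = d * (a * b * a⁻¹ * b⁻¹))
    (h₁ : IsPiece ρ Q W U₁) (h₂ : IsPiece ρ Q W U₂)
    (hsame : ∀ a ∈ Q, ∀ s₁ s₂ : F, (∀ x ∈ U₁, ρ a x = s₁ • x) → (∀ x ∈ U₂, ρ a x = s₂ • x) →
      s₁ = s₂) : U₁ ≤ U₂ := by
  have hmem₁ : ∀ a ∈ Q, ∀ x ∈ U₁, ρ a x ∈ U₁ := fun a ha x hx => h₁.2.2.1 a ha ⟨x, hx, rfl⟩
  have hmem₂ : ∀ a ∈ Q, ∀ x ∈ U₂, ρ a x ∈ U₂ := fun a ha x hx => h₂.2.2.1 a ha ⟨x, hx, rfl⟩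
  -- `Cen(U₂) ⊆ Cen(U₁)`
  have htr : ∀ a, CenOn ρ Q U₂ a → CenOn ρ Q U₁ a := by
    rintro a ⟨ha, hac⟩
    refine ⟨ha, fun b hb x hx => ?_⟩
    have hcQ : a * b * a⁻¹ * b⁻¹ ∈ Q :=
      Q.mul_mem (Q.mul_mem (Q.mul_mem ha hb) (Q.inv_mem ha)) (Q.inv_mem hb)
    -- the commutator acts trivially on `U₂`
    have hc2 : ∀ y ∈ U₂, ρ (a * b * a⁻¹ * b⁻¹) y = (1 : F) • y := by
      intro y hy
      have hy' : ρ (b * a)⁻¹ y ∈ U₂ := hmem₂ _ (Q.inv_mem (Q.mul_mem hb ha)) y hy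
      have h1 := hac b hb _ hy'
      rw [one_smul]
      calc ρ (a * b * a⁻¹ * b⁻¹) y = ρ (a * b * a⁻¹ * b⁻¹) (ρ (b * a) (ρ (b * a)⁻¹ y)) := by
            rw [rho_inv_cancel]
        _ = ρ (a * b) (ρ (b * a)⁻¹ y) := by
            rw [← rho_mul]
            have e : a * b * a⁻¹ * b⁻¹ * (b * a) = a * b := by group
            rw [e]
        _ = ρ (b * a) (ρ (b * a)⁻¹ y) := h1
        _ = y := rho_inv_cancel ρ _ y
    -- it is central in `Q`, so scalar on `U₁`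
    have hcC : CenOn ρ Q U₁ (a * b * a⁻¹ * b⁻¹) :=
      ⟨hcQ, fun d hd y _ => by rw [hcen a ha b hb d hd]⟩
    obtain ⟨t, ht⟩ := h₁.2.2.2.1 _ hcC
    have ht1 : t = 1 := hsame _ hcQ t 1 ht hc2
    have hbx : ρ (b * a) x ∈ U₁ := hmem₁ _ (Q.mul_mem hb ha) x hx
    calc ρ (a * b) x = ρ (a * b * a⁻¹ * b⁻¹) (ρ (b * a) x) := by
          rw [← rho_mul]
          have e : a * b * a⁻¹ * b⁻¹ * (b * a) = a * b := by group
          rw [e]
      _ = ρ (b * a) x := by rw [ht _ hbx, ht1, one_smul]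
  intro x hx
  apply h₂.2.2.2.2 x (h₁.2.1 hx)
  intro a ha s hs
  obtain ⟨s₁, hs₁⟩ := h₁.2.2.2.1 a (htr a ha)
  have e : s₁ = s := hsame a ha.1 s₁ s hs₁ hs
  rw [hs₁ x hx, e]

/-- Two distinct pieces are separated by the scalars of some element of `Q`. -/
theorem exists_sep (ρ : Representation F H V) (Q : Subgroup H) (W U₁ U₂ : Submodule F V)
    (hcen : ∀ a ∈ Q, ∀ b ∈ Q, ∀ d ∈ Q, (a * b * a⁻¹ * b⁻¹) * d = d * (a * b * a⁻¹ * b⁻¹))
    (h₁ : IsPiece ρ Q W U₁) (h₂ : IsPiece ρ Q W U₂) (hne : U₁ ≠ U₂) :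
    ∃ a ∈ Q, ∃ s₁ s₂ : F, s₁ ≠ s₂ ∧ (∀ x ∈ U₁, ρ a x = s₁ • x) ∧ (∀ x ∈ U₂, ρ a x = s₂ • x) := by
  by_contra hno
  have hsame : ∀ a ∈ Q, ∀ s₁ s₂ : F, (∀ x ∈ U₁, ρ a x = s₁ • x) → (∀ x ∈ U₂, ρ a x = s₂ • x) →
      s₁ = s₂ := by
    intro a ha s₁ s₂ hs₁ hs₂
    by_contra h
    exact hno ⟨a, ha, s₁, s₂, h, hs₁, hs₂⟩
  apply hne
  exact le_antisymm (piece_le ρ Q W U₁ U₂ hcen h₁ h₂ hsame)
    (piece_le ρ Q W U₂ U₁ hcen h₂ h₁ (fun a ha s₂ s₁ hs₂ hs₁ => (hsame a ha s₁ s₂ hs₁ hs₂).symm))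

/-- Package (P4). -/
theorem lemPieceIndep : LemPieceIndep.{u, v, w} := by
  intro F _ H _ V _ _ ρ Q W hcen ι _ Us vs hpiece hinj hvs hsum
  classical
  have key : ∀ (s : Finset ι) (vs : ι → V), (∀ i, vs i ∈ Us i) → ∑ i ∈ s, vs i = 0 →
      ∀ i ∈ s, vs i = 0 := by
    intro s
    induction s using Finset.induction_on with
    | empty => intro vs _ _ i hi; simp at hi
    | insert j s hj ih =>
      intro vs hvs hsum
      rw [Finset.sum_insert hj] at hsum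
      have hs0 : ∀ k ∈ s, vs k = 0 := by
        intro k hk
        have hjk : Us j ≠ Us k := by
          intro h
          have := hinj h
          subst this
          exact hj hk
        obtain ⟨a, ha, s₁, s₂, hne, h1, h2⟩ :=
          exists_sep ρ Q W (Us j) (Us k) hcen (hpiece j) (hpiece k) hjk
        have hvs' : ∀ i, ρ a (vs i) - s₁ • vs i ∈ Us i := fun i =>
          (Us i).sub_mem ((hpiece i).2.2.1 a ha ⟨vs i, hvs i, rfl⟩) ((Us i).smul_mem s₁ (hvs i))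
        have hsum' : ∑ i ∈ s, (ρ a (vs i) - s₁ • vs i) = 0 := by
          rw [Finset.sum_sub_distrib, ← map_sum, ← Finset.smul_sum]
          have e : ∑ i ∈ s, vs i = - vs j := by
            rw [eq_neg_iff_add_eq_zero, add_comm]
            exact hsum
          rw [e, map_neg, smul_neg, h1 (vs j) (hvs j)]
          abel
        have h3 := ih (fun i => ρ a (vs i) - s₁ • vs i) hvs' hsum' k hk
        have h3' : ρ a (vs k) - s₁ • vs k = 0 := h3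
        rw [h2 (vs k) (hvs k), ← sub_smul] at h3'
        rcases smul_eq_zero.mp h3' with h | h
        · exact absurd (sub_eq_zero.mp h).symm hne
        · exact h
      intro i hi
      rcases Finset.mem_insert.mp hi with rfl | hi
      · rw [Finset.sum_eq_zero hs0, add_zero] at hsum
        exact hsum
      · exact hs0 i hi
  intro i
  exact key Finset.univ vs hvs hsum i (Finset.mem_univ i)

end

end Cfsg.Agent.Lib.Helper80.HH86
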