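import Mathlib
import Cfsg.Agent.Lib.Helper70.HH.S3786Defs2

/-!
# S3786, part 2, package (C2) `LemY` (helper80)

`Y = ypow T m` (generated by the `m`-th powers of the elements of `T`): `Y ≤ T`, `[Y, Y]` is
normalized by `T`, and if the commutators of the generators act trivially on `Q / Φ(Q)` then
so does `[Y, Y]`.
-/

set_option autoImplicit false

namespace Cfsg.Agent.Lib.Helper80.HH86

open Cfsg.Agent.Lib.Helper70.HH86 Cfsg.Agent.Lib.Helper70.HH89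

universe u

/-- `Φ(Q)` is invariant under every element normalizing `Q`. -/
theorem frat_conj_mem' {H : Type u} [Group H] (Q : Subgroup H) (b : H)
    (hb : ∀ g ∈ Q, b * g * b⁻¹ ∈ Q) (hb' : ∀ g ∈ Q, b⁻¹ * g * b ∈ Q) :
    ∀ c ∈ frat Q, b * c * b⁻¹ ∈ frat Q := by
  rintro _ ⟨c, hc, rfl⟩
  let φ : ↥Q ≃* ↥Q :=
    { toFun := fun g => ⟨b * g.1 * b⁻¹, hb g.1 g.2⟩
      invFun := fun g => ⟨b⁻¹ * g.1 * b, hb' g.1 g.2⟩
      left_inv := fun g => Subtype.ext (by simp [mul_assoc])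
      right_inv := fun g => Subtype.ext (by simp [mul_assoc])
      map_mul' := fun g h => Subtype.ext (by simp [mul_assoc]) }
  have hchar : (frattini ↥Q).Characteristic := frattini_characteristic
  have h1 : φ c ∈ frattini ↥Q := by
    have h2 := Subgroup.characteristic_iff_map_eq.1 hchar φ
    rw [← h2]
    exact Subgroup.mem_map_of_mem _ hc
  exact ⟨φ c, h1, rfl⟩

/-- If the generators `S ⊆ T` commute modulo a subgroup `K` normalized by `T`, then so do all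
elements of `closure S`. -/
theorem comm_closure_mem {G : Type u} [Group G] (K T : Subgroup G)
    (hKn : ∀ t ∈ T, ∀ k ∈ K, t * k * t⁻¹ ∈ K) (S : Set G) (hS : ∀ s ∈ S, s ∈ T)
    (h : ∀ s ∈ S, ∀ s' ∈ S, s * s' * s⁻¹ * s'⁻¹ ∈ K) :
    ∀ y ∈ Subgroup.closure S, ∀ y' ∈ Subgroup.closure S, y * y' * y⁻¹ * y'⁻¹ ∈ K := by
  have hST : Subgroup.closure S ≤ T := (Subgroup.closure_le T).mpr hS
  have hKn' : ∀ t ∈ T, ∀ k ∈ K, t⁻¹ * k * t ∈ K := by
    intro t ht k hk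
    have := hKn t⁻¹ (T.inv_mem ht) k hk
    simpa using this
  -- Step 1
  have step1 : ∀ y ∈ Subgroup.closure S, ∀ s ∈ S, y * s * y⁻¹ * s⁻¹ ∈ K := by
    intro y hy
    induction hy using Subgroup.closure_induction with
    | mem x hx => exact fun s hs => h x hx s hs
    | one => intro s _; simp
    | mul x y hx hy ihx ihy =>
      intro s hs
      have e : x * y * s * (x * y)⁻¹ * s⁻¹ = x * (y * s * y⁻¹ * s⁻¹) * x⁻¹ * (x * s * x⁻¹ * s⁻¹) := by
        group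
      rw [e]
      exact K.mul_mem (hKn x (hST hx) _ (ihy s hs)) (ihx s hs)
    | inv x hx ihx =>
      intro s hs
      have e : x⁻¹ * s * x⁻¹⁻¹ * s⁻¹ = x⁻¹ * (x * s * x⁻¹ * s⁻¹)⁻¹ * x := by group
      rw [e]
      exact hKn' x (hST hx) _ (K.inv_mem (ihx s hs))
  -- Step 2
  intro y hy y' hy'
  induction hy' using Subgroup.closure_induction with
  | mem x hx => exact step1 y hy x hx
  | one => simp
  | mul x₁ x₂ hx₁ hx₂ ih₁ ih₂ =>
    have e : y * (x₁ * x₂) * y⁻¹ * (x₁ * x₂)⁻¹ =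
        (y * x₁ * y⁻¹ * x₁⁻¹) * (x₁ * (y * x₂ * y⁻¹ * x₂⁻¹) * x₁⁻¹) := by group
    rw [e]
    exact K.mul_mem ih₁ (hKn x₁ (hST hx₁) _ ih₂)
  | inv x hx ihx =>
    have e : y * x⁻¹ * y⁻¹ * x⁻¹⁻¹ = x⁻¹ * (y * x * y⁻¹ * x⁻¹)⁻¹ * x := by group
    rw [e]
    exact hKn' x (hST hx) _ (K.inv_mem ihx)

/-- Package (C2). -/
theorem lemY : LemY.{u} := by
  intro H _ _ T Q m hTQ
  have hTQ' : ∀ b ∈ T, ∀ g ∈ Q, b⁻¹ * g * b ∈ Q := by
    intro b hb g hg
    have := hTQ b⁻¹ (T.inv_mem hb) g hg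
    simpa using this
  have hfr : ∀ b ∈ T, ∀ c ∈ frat Q, b * c * b⁻¹ ∈ frat Q := fun b hb =>
    frat_conj_mem' Q b (hTQ b hb) (hTQ' b hb)
  have hfr' : ∀ b ∈ T, ∀ c ∈ frat Q, b⁻¹ * c * b ∈ frat Q := by
    intro b hb c hc
    have := hfr b⁻¹ (T.inv_mem hb) c hc
    simpa using this
  have hgen : ∀ s ∈ {y : H | ∃ t ∈ T, y = t ^ m}, s ∈ T := by
    rintro s ⟨t, ht, rfl⟩
    exact T.pow_mem ht m
  have hYT : ypow T m ≤ T := (Subgroup.closure_le T).mpr hgen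
  refine ⟨hYT, ?_, ?_⟩
  · -- `[Y, Y]` is normalized by `T`
    intro b hb a ha
    have hmapY : (ypow T m).map (MulAut.conj b).toMonoidHom ≤ ypow T m := by
      unfold ypow
      rw [MonoidHom.map_closure, Subgroup.closure_le]
      rintro _ ⟨s, ⟨t, ht, rfl⟩, rfl⟩
      apply Subgroup.subset_closure
      refine ⟨b * t * b⁻¹, T.mul_mem (T.mul_mem hb ht) (T.inv_mem hb), ?_⟩
      change b * t ^ m * b⁻¹ = (b * t * b⁻¹) ^ m
      rw [conj_pow]
    have h1 : (MulAut.conj b).toMonoidHom a ∈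
        (⁅ypow T m, ypow T m⁆).map (MulAut.conj b).toMonoidHom := Subgroup.mem_map_of_mem _ ha
    rw [Subgroup.map_commutator] at h1
    exact Subgroup.commutator_mono hmapY hmapY h1
  · intro hcomm c hc a ha
    -- the kernel `K` of the action of `T` on `Q / Φ(Q)`
    let K : Subgroup H :=
      { carrier := {b | b ∈ T ∧ ∀ a ∈ Q, b * a * b⁻¹ * a⁻¹ ∈ frat Q}
        one_mem' := ⟨T.one_mem, fun a _ => by simp⟩
        mul_mem' := by
          rintro b b' ⟨hb, hbQ⟩ ⟨hb', hb'Q⟩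
          refine ⟨T.mul_mem hb hb', fun a ha => ?_⟩
          have e : b * b' * a * (b * b')⁻¹ * a⁻¹ =
              b * (b' * a * b'⁻¹ * a⁻¹) * b⁻¹ * (b * a * b⁻¹ * a⁻¹) := by group
          rw [e]
          exact (frat Q).mul_mem (hfr b hb _ (hb'Q a ha)) (hbQ a ha)
        inv_mem' := by
          rintro b ⟨hb, hbQ⟩
          refine ⟨T.inv_mem hb, fun a ha => ?_⟩
          have h1 := hbQ (b⁻¹ * a * b) (hTQ' b hb a ha)
          have e : b⁻¹ * a * b⁻¹⁻¹ * a⁻¹ = (b * (b⁻¹ * a * b) * b⁻¹ * (b⁻¹ * a * b)⁻¹)⁻¹ := by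
            group
          rw [e]
          exact (frat Q).inv_mem h1 }
    have hKn : ∀ t ∈ T, ∀ k ∈ K, t * k * t⁻¹ ∈ K := by
      rintro t ht k ⟨hk, hkQ⟩
      refine ⟨T.mul_mem (T.mul_mem ht hk) (T.inv_mem ht), fun a ha => ?_⟩
      have h1 := hkQ (t⁻¹ * a * t) (hTQ' t ht a ha)
      have e : t * k * t⁻¹ * a * (t * k * t⁻¹)⁻¹ * a⁻¹ =
          t * (k * (t⁻¹ * a * t) * k⁻¹ * (t⁻¹ * a * t)⁻¹) * t⁻¹ := by group
      rw [e]
      exact hfr t ht _ h1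
    have hSS : ∀ s ∈ {y : H | ∃ t ∈ T, y = t ^ m}, ∀ s' ∈ {y : H | ∃ t ∈ T, y = t ^ m},
        s * s' * s⁻¹ * s'⁻¹ ∈ K := by
      rintro s ⟨t, ht, rfl⟩ s' ⟨t', ht', rfl⟩
      refine ⟨?_, fun a ha => hcomm t ht t' ht' a ha⟩
      exact T.mul_mem (T.mul_mem (T.mul_mem (T.pow_mem ht m) (T.pow_mem ht' m))
        (T.inv_mem (T.pow_mem ht m))) (T.inv_mem (T.pow_mem ht' m))
    have hall := comm_closure_mem K T hKn _ hgen hSS
    have hle : ⁅ypow T m, ypow T m⁆ ≤ K := by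
      rw [Subgroup.commutator_le]
      intro g₁ hg₁ g₂ hg₂
      rw [commutatorElement_def]
      exact hall g₁ hg₁ g₂ hg₂
    exact (hle hc).2 a ha

end Cfsg.Agent.Lib.Helper80.HH86
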